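import Cfsg.Agent.Lib.Helper95.Sp.K2x

set_option autoImplicit false

/-! # Piece K2y of the symplectic campaign: the tensor structure attached to a family -/

namespace Cfsg.Agent.Lib.Helper95.Sp

open Cfsg Cfsg.Geo Matrix Cfsg.Agent.Lib.Helper13.Asch Cfsg.Agent.Lib.Helper90.Sp
  Cfsg.Agent.Lib.Helper12.Asch
open scoped Kronecker MatrixGroups

variable {ι : Type} [Fintype ι] [DecidableEq ι] {F : Type*} [Field F]

/-- K2y -/
theorem tensor_structure_of_family [Fintype F] [Nonempty ι] {H : Subgroup (GL ι F)} (hQP : QP H)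
    {t : ℕ} (ht : 2 ≤ t) (P : Fin t → Subgroup (GL ι F)) (hPH : ∀ i, P i ≤ H)
    (hcomm : ∀ i j, i ≠ j → ∀ x ∈ P i, ∀ y ∈ P j, x * y = y * x)
    (hperm : ∀ h ∈ H, ∃ σ : Equiv.Perm (Fin t), ∀ i,
      (P i).map (MulAut.conj h).toMonoidHom = P (σ i))
    (htrans : ∀ i j, ∃ h ∈ H, (P i).map (MulAut.conj h).toMonoidHom = P j)
    (hns : ∀ i, ¬ P i ≤ scalars ι F) :
    ∃ (m : ℕ) (e : ι ≃ (Fin t → Fin m)) (B : GL ι F),
      ∀ i, ∀ M : Matrix ι ι F, M ∈ env (P i) ↔ ∃ X, M = embT e B i X := by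
  classical
  obtain ⟨henv, hnrm, hP0H, hall⟩ := family_props hQP ht P hPH hcomm hperm hns
  set P0 : Subgroup (GL ι F) := ⨆ i, P i with hP0
  have i0 : Fin t := ⟨0, by omega⟩
  have hAcomm : ∀ i j, i ≠ j → ∀ a ∈ env (P i), ∀ b ∈ env (P j), a * b = b * a :=
    fun i j hij => env_commute (hcomm i j hij)
  have hSS : ∀ i, SS (env (P i)) := fun i =>
    Cfsg.Agent.Lib.Helper73.Asch.ss_of_irr P0
      (Cfsg.Agent.Lib.Helper96.Asch.absIrr_of_env_top henv).1 _
      (Cfsg.Agent.Lib.Helper58.Asch.nrm_env (hall i).1)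
  obtain ⟨m, ⟨ψ⟩⟩ := Cfsg.Agent.Lib.Helper79.Asch.exists_algEquiv_matrix (env (P i0)) (hSS i0)
    (hall i0).2.1
  choose g hgH hg using htrans i0
  let φ : Fin t → (Matrix (Fin m) (Fin m) F →ₐ[F] Matrix ι ι F) := fun i =>
    (cjA (g i)).comp ((env (P i0)).val.comp ψ.toAlgHom)
  have hrange : ∀ i, (φ i).range = env (P i) := by
    intro i
    show ((cjA (g i)).comp ((env (P i0)).val.comp ψ.toAlgHom)).range = _
    rw [AlgHom.range_comp, AlgHom.range_comp, ← hg i, env_conj]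
    congr 1
    have : (ψ.toAlgHom).range = ⊤ := by
      rw [AlgHom.range_eq_top]
      exact ψ.surjective
    rw [this, Algebra.map_top, Subalgebra.range_val]
  have hφmem : ∀ i X, φ i X ∈ env (P i) := fun i X => by
    rw [← hrange i]; exact ⟨X, rfl⟩
  have hgen : (⨆ i, (φ i).range) = ⊤ := by
    rw [eq_top_iff, ← henv]
    apply Algebra.adjoin_le
    rintro _ ⟨x, hx, rfl⟩
    show (x : Matrix ι ι F) ∈ (⨆ i, (φ i).range)
    induction hx using Subgroup.iSup_induction' with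
    | hp j x hx =>
      have h1 : (φ j).range ≤ ⨆ i, (φ i).range := le_iSup (fun i => (φ i).range) j
      apply h1
      rw [hrange j]
      exact mem_env hx
    | h1 => exact Subalgebra.one_mem _
    | hmul x y _ _ hx hy =>
      rw [Units.val_mul]
      exact Subalgebra.mul_mem _ hx hy
  obtain ⟨e, Pm, hstd⟩ := Cfsg.Agent.Lib.Helper21.Asch.tensor_std φ
    (fun i j hij X Y => hAcomm i j hij _ (hφmem i X) _ (hφmem j Y)) hgen
  refine ⟨m, e, Pm, fun i M => ?_⟩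
  rw [← hrange i]
  constructor
  · rintro ⟨X, rfl⟩
    exact ⟨X, hstd i X⟩
  · rintro ⟨X, rfl⟩
    exact ⟨X, hstd i X⟩

end Cfsg.Agent.Lib.Helper95.Sp
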