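import Cfsg.Agent.Lib.Helper90.Sp.Defs
import Cfsg.Agent.Lib.Helper55.Asch.DecCore

set_option autoImplicit false

/-! # Piece Y of the symplectic campaign: the standard form -/

namespace Cfsg.Agent.Lib.Helper95.Sp

open Cfsg Cfsg.Geo Matrix Cfsg.Agent.Lib.Helper13.Asch Cfsg.Agent.Lib.Helper90.Sp
open scoped Kronecker MatrixGroups

variable {ι : Type} [Fintype ι] [DecidableEq ι] {F : Type*} [Field F]

lemma sympForm_skew (m : ℕ) (v w : Fin m ⊕ Fin m → F) : sympForm m F v w = - sympForm m F w v := by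
  unfold sympForm
  rw [Matrix.dotProduct_mulVec, ← Matrix.mulVec_transpose, Matrix.J_transpose, Matrix.neg_mulVec,
    neg_dotProduct, dotProduct_comm]

lemma sympForm_alt (m : ℕ) (x : Fin m ⊕ Fin m → F) : sympForm m F x x = 0 := by
  unfold sympForm
  simp only [Matrix.J, dotProduct, Fintype.sum_sum_type, Matrix.mulVec, Matrix.fromBlocks_apply₁₁,
    Matrix.fromBlocks_apply₁₂, Matrix.fromBlocks_apply₂₁, Matrix.fromBlocks_apply₂₂,
    Matrix.zero_apply, Matrix.neg_apply, Matrix.one_apply, zero_mul, Finset.sum_const_zero,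
    zero_add, add_zero, neg_mul, ite_mul, one_mul, Finset.sum_neg_distrib, Finset.sum_ite_eq,
    Finset.mem_univ, if_true, mul_neg]
  rw [neg_add_eq_zero]
  exact Finset.sum_congr rfl (fun i _ => mul_comm _ _)

/-- Y1 -/
theorem sympForm_isSymplectic (m : ℕ) : IsSymplecticForm (sympForm m F) := by
  refine ⟨⟨?_, ?_, ?_, ?_⟩, sympForm_skew m, sympForm_alt m, ?_⟩
  · intro x y v
    unfold sympForm
    rw [add_dotProduct]
  · intro c x v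
    unfold sympForm
    rw [smul_dotProduct, smul_eq_mul]
  · intro v x y
    unfold sympForm
    rw [Matrix.mulVec_add, dotProduct_add]
  · intro c v x
    unfold sympForm
    rw [Matrix.mulVec_smul, dotProduct_smul, smul_eq_mul]
  · intro v hv
    have hJv : Matrix.J (Fin m) F *ᵥ v ≠ 0 := by
      intro h0
      apply hv
      have h1 : (Matrix.J (Fin m) F * Matrix.J (Fin m) F) *ᵥ v = 0 := by
        rw [← Matrix.mulVec_mulVec, h0, Matrix.mulVec_zero]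
      rw [Matrix.J_squared, Matrix.neg_mulVec, Matrix.one_mulVec, neg_eq_zero] at h1
      exact h1
    obtain ⟨i, hi⟩ := Function.ne_iff.1 hJv
    have h1 : sympForm m F (Pi.single i 1) v ≠ 0 := by
      unfold sympForm
      rw [single_dotProduct, one_mul]
      exact hi
    refine ⟨⟨_, h1⟩, ⟨Pi.single i 1, ?_⟩⟩
    rw [sympForm_skew]
    exact neg_ne_zero.2 h1

/-- Y2 -/
theorem fixes_of_le_spGL {m : ℕ} {H : Subgroup (GL (Fin m ⊕ Fin m) F)} (hH : H ≤ spGL m F) :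
    FixesForm (matrixSet H) (sympForm m F) := by
  rintro _ ⟨g, hg, rfl⟩ u v
  exact hH hg u v

/-- Y3 -/
theorem SpCls.inClass [Fintype F] {m : ℕ} {H : Subgroup (GL (Fin m ⊕ Fin m) F)}
    (hH : H ≤ spGL m F) (h : SpCls (sympForm m F) H) :
    ∃ M : Subgroup (GL (Fin m ⊕ Fin m) F), InSymplecticClass m F M ∧ H ≤ M := by
  have hcard : Fintype.card (Fin m ⊕ Fin m) = 2 * m := by simp; omega
  rcases h with ⟨W, h0, h1, h⟩ | ⟨W, h0, h1, h2, h⟩ | ⟨t, k, D, hD, h⟩ | ⟨k, D, ho, hD, hs, h⟩ |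
    ⟨F₀, r, P, ζ, hr, hc, hζ, hs, h⟩ | ⟨R, p, k, h1, h2, h3, h4, h5, h6, h7, h8, h9, -, h⟩ |
    ⟨Q, ho, hQ, hp, h⟩ | ⟨r, K, hr, hK, h1, h2, h⟩ | ⟨K, ho, hK, h1, h2, h⟩ |
    ⟨n₁, n₂, e, P, f₁, f₂, ho, h3, h1, h2, hs, h⟩ | ⟨k, t, e, P, f₁, ho, ht, h3, hn, h1, hs, h⟩
  · exact ⟨_, Or.inl (Or.inl ⟨W, h0, h1, rfl⟩), le_inf h hH⟩
  · exact ⟨_, Or.inl (Or.inr (Or.inl ⟨W, h0, h1, by rw [hcard] at h2; omega, rfl⟩)), le_inf h hH⟩
  · exact ⟨_, Or.inl (Or.inr (Or.inr (Or.inl ⟨t, k, D, hD, rfl⟩))), le_inf h hH⟩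
  · have hk : k = m := by
      have := Cfsg.Agent.Lib.Helper55.Asch.card_of_decomp D hD
      rw [hcard] at this
      omega
    subst hk
    exact ⟨_, Or.inl (Or.inr (Or.inr (Or.inr (Or.inl ⟨D, ho, hD, hs, rfl⟩)))), le_inf h hH⟩
  · exact ⟨_, Or.inl (Or.inr (Or.inr (Or.inr (Or.inr (Or.inl ⟨F₀, r, P, ζ, hr, hc, hζ, hs, rfl⟩))))),
      le_inf h hH⟩
  · exact ⟨_, Or.inl (Or.inr (Or.inr (Or.inr (Or.inr (Or.inr (Or.inl
      ⟨R, p, k, h1, h2, h3, h4, h5, h6, h7, h8, h9, rfl⟩)))))), le_inf h hH⟩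
  · exact ⟨_, Or.inl (Or.inr (Or.inr (Or.inr (Or.inr (Or.inr (Or.inr ⟨Q, ho, hQ, hp, rfl⟩)))))),
      le_inf h hH⟩
  · exact ⟨_, Or.inr (Or.inl ⟨r, K, hr, hK, h1, h2, rfl⟩), le_inf h hH⟩
  · exact ⟨_, Or.inr (Or.inr (Or.inl ⟨K, ho, hK, h1, h2, rfl⟩)), le_inf h hH⟩
  · exact ⟨_, Or.inr (Or.inr (Or.inr (Or.inl ⟨n₁, n₂, e, P, f₁, f₂, ho, h3, h1, h2, hs, rfl⟩))),
      le_inf h hH⟩
  · exact ⟨_, Or.inr (Or.inr (Or.inr (Or.inr ⟨k, t, e, P, f₁, ho, ht, h3, hn, h1, hs, rfl⟩))),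
      le_inf h hH⟩

end Cfsg.Agent.Lib.Helper95.Sp
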