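import Cfsg.Agent.Lib.Helper90.Sp.Defs
import Cfsg.Agent.Lib.Helper21.Asch.L14
import Cfsg.Agent.S0144

set_option autoImplicit false

/-! # Piece K2w of the symplectic campaign: no perfect subgroup in `GL_2(3)` -/

namespace Cfsg.Agent.Lib.Helper95.Sp

open Cfsg Cfsg.Geo Matrix Cfsg.Agent.Lib.Helper13.Asch Cfsg.Agent.Lib.Helper90.Sp
open scoped Kronecker MatrixGroups

variable {ι : Type} [Fintype ι] [DecidableEq ι] {F : Type*} [Field F]

lemma gl_val_mul_inv (h : GL ι F) :
    (h : Matrix ι ι F) * ((h⁻¹ : GL ι F) : Matrix ι ι F) = 1 := by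
  rw [← Units.val_mul, mul_inv_cancel, Units.val_one]

lemma gl_val_inv_mul (h : GL ι F) :
    ((h⁻¹ : GL ι F) : Matrix ι ι F) * (h : Matrix ι ι F) = 1 := by
  rw [← Units.val_mul, inv_mul_cancel, Units.val_one]

lemma embT_mul {m t : ℕ} (e : ι ≃ (Fin t → Fin m)) (B : GL ι F) (i : Fin t)
    (X Y : Matrix (Fin m) (Fin m) F) : embT e B i (X * Y) = embT e B i X * embT e B i Y := by
  unfold embT
  rw [Cfsg.Agent.Lib.Helper21.Asch.stdT_mul]
  have h1 : Matrix.reindex e.symm e.symm (stdT i X * stdT i Y)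
      = Matrix.reindex e.symm e.symm (stdT i X) * Matrix.reindex e.symm e.symm (stdT i Y) := by
    simp only [Matrix.reindex_apply, Matrix.submatrix_mul_equiv]
  rw [h1]
  calc (B : Matrix ι ι F) * (Matrix.reindex e.symm e.symm (stdT i X) *
        Matrix.reindex e.symm e.symm (stdT i Y)) * ((B⁻¹ : GL ι F) : Matrix ι ι F)
      = (B : Matrix ι ι F) * Matrix.reindex e.symm e.symm (stdT i X) * 1 *
        Matrix.reindex e.symm e.symm (stdT i Y) * ((B⁻¹ : GL ι F) : Matrix ι ι F) := by
        simp only [mul_one, mul_assoc]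
    _ = _ := by rw [← gl_val_inv_mul B]; simp only [mul_assoc]

lemma embT_one {m t : ℕ} (e : ι ≃ (Fin t → Fin m)) (B : GL ι F) (i : Fin t) :
    embT e B i (1 : Matrix (Fin m) (Fin m) F) = 1 := by
  unfold embT
  rw [Cfsg.Agent.Lib.Helper21.Asch.stdT_one]
  have : Matrix.reindex e.symm e.symm (1 : Matrix (Fin t → Fin m) (Fin t → Fin m) F) = 1 := by
    simp [Matrix.reindex_apply]
  rw [this, mul_one, gl_val_mul_inv]

lemma embT_injective {m t : ℕ} [Nonempty (Fin t → Fin m)] (e : ι ≃ (Fin t → Fin m)) (B : GL ι F)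
    (i : Fin t) : Function.Injective (embT (F := F) e B i) := by
  intro X Y h
  unfold embT at h
  have h1 : Matrix.reindex e.symm e.symm (stdT i X) = Matrix.reindex e.symm e.symm (stdT i Y) := by
    have h2 := congrArg (fun M => ((B⁻¹ : GL ι F) : Matrix ι ι F) * M * (B : Matrix ι ι F)) h
    simp only [← mul_assoc, gl_val_inv_mul, one_mul] at h2
    simpa only [mul_assoc, gl_val_inv_mul, mul_one] using h2
  exact Cfsg.Agent.Lib.Helper21.Asch.stdT_injective i ((Matrix.reindex e.symm e.symm).injective h1)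

theorem isSolvable_GL2_F3 [Fintype F] (hq : Fintype.card F = 3) :
    Group.IsSolvable (GL (Fin 2) F) := by
  have hfin : Finite (GL (Fin 2) F) := inferInstance
  apply Cfsg.Agent.S0144.result 2 3 4 1 Nat.prime_two Nat.prime_three
  rw [Matrix.card_GL_field, hq]
  simp [Fin.prod_univ_two]

/-- K2w -/
theorem perfect_GL2_F3 [Fintype F] (hq : Fintype.card F = 3) {t : ℕ} (e : ι ≃ (Fin t → Fin 2))
    (B : GL ι F) (i : Fin t) (L : Subgroup (GL ι F))
    (hL : ∀ x ∈ L, ∃ X, (x : Matrix ι ι F) = embT e B i X) (hperf : ⁅L, L⁆ = L) : L = ⊥ := by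
  classical
  haveI : Nonempty (Fin t → Fin 2) := ⟨fun _ => 0⟩
  have hinj := embT_injective (F := F) e B i
  choose! X hX using hL
  have hmul : ∀ x ∈ L, ∀ y ∈ L, X (x * y) = X x * X y := by
    intro x hx y hy
    apply hinj
    rw [embT_mul, ← hX x hx, ← hX y hy, ← hX _ (L.mul_mem hx hy), Units.val_mul]
  have hone : X 1 = 1 := by
    apply hinj
    rw [embT_one, ← hX 1 L.one_mem, Units.val_one]
  let ψ : L →* GL (Fin 2) F :=
    { toFun := fun x => ⟨X x.1, X x.1⁻¹,
        by rw [← hmul _ x.2 _ (L.inv_mem x.2), mul_inv_cancel, hone],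
        by rw [← hmul _ (L.inv_mem x.2) _ x.2, inv_mul_cancel, hone]⟩
      map_one' := Units.ext hone
      map_mul' := fun x y => Units.ext (hmul _ x.2 _ y.2) }
  have hψ : Function.Injective ψ := by
    intro x y h
    have h1 : X x.1 = X y.1 := congrArg Units.val h
    apply Subtype.ext
    apply Units.ext
    rw [hX _ x.2, hX _ y.2, h1]
  haveI := isSolvable_GL2_F3 hq
  haveI : Group.IsSolvable L := Group.isSolvable_of_isSolvable_injective hψ
  by_contra hne
  haveI : Nontrivial L := (Subgroup.nontrivial_iff_ne_bot L).2 hne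
  have h1 := Group.IsSolvable.commutator_lt_top_of_nontrivial L
  have h2 := Subgroup.map_subtype_commutator L
  rw [hperf] at h2
  apply h1.ne
  apply Subgroup.map_injective L.subtype_injective
  rw [h2, ← MonoidHom.range_eq_map, Subgroup.range_subtype]

end Cfsg.Agent.Lib.Helper95.Sp
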