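import Cfsg.Agent.Lib.Helper90.Sp.Defs
import Cfsg.Agent.Lib.Helper12.Asch.K2b

set_option autoImplicit false

/-! # Piece K2x of the symplectic campaign: properties of a family of commuting subgroups -/

namespace Cfsg.Agent.Lib.Helper95.Sp

open Cfsg Cfsg.Geo Matrix Cfsg.Agent.Lib.Helper13.Asch Cfsg.Agent.Lib.Helper90.Sp
open scoped Kronecker MatrixGroups

variable {ι : Type} [Fintype ι] [DecidableEq ι] {F : Type*} [Field F]

/-- K2x -/
theorem family_props [Finite F] [Nonempty ι] {H : Subgroup (GL ι F)} (hQP : QP H) {t : ℕ}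
    (ht : 2 ≤ t) (P : Fin t → Subgroup (GL ι F)) (hPH : ∀ i, P i ≤ H)
    (hcomm : ∀ i j, i ≠ j → ∀ x ∈ P i, ∀ y ∈ P j, x * y = y * x)
    (hperm : ∀ h ∈ H, ∃ σ : Equiv.Perm (Fin t), ∀ i,
      (P i).map (MulAut.conj h).toMonoidHom = P (σ i))
    (hns : ∀ i, ¬ P i ≤ scalars ι F) :
    env (⨆ i, P i) = ⊤ ∧ Nrm H (⨆ i, P i) ∧ (⨆ i, P i) ≤ H ∧
      ∀ i, Nrm (⨆ j, P j) (P i) ∧
        (∀ z ∈ env (P i), (∀ a ∈ env (P i), z * a = a * z) → ∃ c : F, z = c • 1) ∧
        env (P i) ≠ ⊤ := by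
  classical
  set P0 : Subgroup (GL ι F) := ⨆ i, P i with hP0
  have i0 : Fin t := ⟨0, by omega⟩
  have hPP0 : ∀ i, P i ≤ P0 := fun i => le_iSup P i
  have hP0H : P0 ≤ H := iSup_le hPH
  have hnrm : Nrm H P0 := by
    intro h hh x hx
    obtain ⟨σ, hσ⟩ := hperm h hh
    induction hx using Subgroup.iSup_induction' with
    | hp i x hx =>
      apply hPP0 (σ i)
      rw [← hσ i]
      exact ⟨x, hx, rfl⟩
    | h1 => simp
    | hmul x y _ _ hx hy =>
      have e : h * (x * y) * h⁻¹ = (h * x * h⁻¹) * (h * y * h⁻¹) := by group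
      rw [e]
      exact P0.mul_mem hx hy
  have henv : env P0 = ⊤ :=
    (hQP P0 hP0H hnrm).resolve_left (fun h => hns i0 ((hPP0 i0).trans h))
  refine ⟨henv, hnrm, hP0H, fun i => ⟨?_, ?_, ?_⟩⟩
  · intro x hx
    induction hx using Subgroup.iSup_induction' with
    | hp j x hx =>
      intro y hy
      by_cases hij : j = i
      · subst hij
        exact (P j).mul_mem ((P j).mul_mem hx hy) ((P j).inv_mem hx)
      · rw [hcomm j i hij x hx y hy, mul_inv_cancel_right]
        exact hy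
    | h1 => intro y hy; simpa using hy
    | hmul x y _ _ hx hy =>
      intro z hz
      have e : x * y * z * (x * y)⁻¹ = x * (y * z * y⁻¹) * x⁻¹ := by group
      rw [e]
      exact hx _ (hy z hz)
  · intro z hz hza
    apply Cfsg.Agent.Lib.Helper96.Asch.scalar_of_commute henv
    intro x hx
    induction hx using Subgroup.iSup_induction' with
    | hp j x hx =>
      by_cases hij : i = j
      · subst hij
        exact hza _ (Cfsg.Agent.Lib.Helper12.Asch.mem_env hx)
      · exact Cfsg.Agent.Lib.Helper12.Asch.env_commute (hcomm i j hij) z hz _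
          (Cfsg.Agent.Lib.Helper12.Asch.mem_env hx)
    | h1 => simp
    | hmul x y _ _ hx hy =>
      rw [Units.val_mul, ← mul_assoc, hx, mul_assoc, hy, mul_assoc]
  · intro htop
    obtain ⟨j, hj⟩ : ∃ j : Fin t, j ≠ i := by
      by_cases hi : i = ⟨0, by omega⟩
      · exact ⟨⟨1, by omega⟩, by rw [hi]; simp [Fin.ext_iff]⟩
      · exact ⟨⟨0, by omega⟩, fun h => hi h.symm⟩
    apply hns j
    intro y hy
    obtain ⟨c, hc⟩ := Cfsg.Agent.Lib.Helper96.Asch.scalar_of_commute htop (y : Matrix ι ι F) (by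
      intro x hx
      rw [← Units.val_mul, ← Units.val_mul, hcomm j i hj y hy x hx])
    have hc0 : c ≠ 0 := by
      rintro rfl
      rw [zero_smul] at hc
      have := Cfsg.Agent.Lib.Helper12.Asch.val_mul_inv y
      rw [hc, zero_mul] at this
      exact zero_ne_one this
    exact (mem_scalars_iff y).2 ⟨Units.mk0 c hc0, hc⟩

end Cfsg.Agent.Lib.Helper95.Sp
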